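import Cfsg.Agent.H845.T13

/-!
# Elements of order 13 of `Fi24` (helper217; S3509, row Fi24')

`thirteen`        : an element of order 3 commuting with `y` of order 13 centralizes a simple subgroup `K` (`G₂(3)`) of
                    `Fi24'` containing `y`.
`thirteen_primes` : a prime order element commuting with `y` of order 13 has order 2, 3 or 13.
-/

set_option autoImplicit false

namespace Cfsg.Agent.H217.RG.Thirteen

open Subgroup Cfsg.Agent.H845.T13Concl

section

universe w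

variable {G : Type w} [Group G] {D : Set G} {l k u v x s : G}

/-- elements of `⟨a, b⟩ ≅ S₃` -/
theorem mem_S3 {a b : G} (aa : a * a = 1) (bb : b * b = 1) (ab : a * b * a = b * a * b) {t : G}
    (ht : t ∈ closure ({a, b} : Set G)) :
    t = 1 ∨ t = a ∨ t = b ∨ t = a * b ∨ t = b * a ∨ t = a * b * a := by
  have ia : a⁻¹ = a := inv_eq_of_mul_eq_one_right aa
  have ib : b⁻¹ = b := inv_eq_of_mul_eq_one_right bb
  have c1 : ∀ y : G, a * (a * y) = y := fun y => by rw [← mul_assoc, aa, one_mul]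
  have c2 : ∀ y : G, b * (b * y) = y := fun y => by rw [← mul_assoc, bb, one_mul]
  have ab' : a * (b * a) = b * (a * b) := by rw [← mul_assoc, ab, mul_assoc]
  have key : ∀ z ∈ ({a, b} : Set G), ∀ y : G,
      (y = 1 ∨ y = a ∨ y = b ∨ y = a * b ∨ y = b * a ∨ y = a * b * a) →
      (z * y = 1 ∨ z * y = a ∨ z * y = b ∨ z * y = a * b ∨ z * y = b * a ∨ z * y = a * b * a) := by
    rintro z (rfl | rfl) y (rfl | rfl | rfl | rfl | rfl | rfl)
    · simp
    · left; exact aa
    · simp
    · right; right; left; exact c1 _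
    · right; right; right; right; right; rw [mul_assoc]
    · right; right; right; right; left; rw [mul_assoc, c1]
    · simp
    · simp
    · left; exact bb
    · right; right; right; right; right; rw [ab, mul_assoc]
    · right; left; exact c2 _
    · right; right; right; left; rw [ab, mul_assoc, c2]
  induction ht using closure_induction_left with
  | one => exact Or.inl rfl
  | mul_left z hz y hy ih => exact key z hz y ih
  | inv_mul_cancel z hz y hy ih =>
    have : z⁻¹ = z := by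
      rcases hz with rfl | rfl
      exacts [ia, ib]
    rw [this]
    exact key z hz y ih

theorem pow_six {a b : G} (aa : a * a = 1) (bb : b * b = 1) (ab : a * b * a = b * a * b) {t : G}
    (ht : t ∈ closure ({a, b} : Set G)) : t ^ 6 = 1 := by
  have h3 : (a * b) ^ 3 = 1 := by
    calc (a * b) ^ 3 = (a * b * a) * (b * a * b) := by simp only [pow_succ, pow_zero, one_mul, mul_assoc]
      _ = (a * b * a) * (a * b * a) := by rw [ab]
      _ = a * b * (a * a) * b * a := by simp only [mul_assoc]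
      _ = a * (b * b) * a := by rw [aa, mul_one]; simp only [mul_assoc]
      _ = 1 := by rw [bb, mul_one, aa]
  have h3' : (b * a) ^ 3 = 1 := by
    calc (b * a) ^ 3 = (b * a * b) * (a * b * a) := by simp only [pow_succ, pow_zero, one_mul, mul_assoc]
      _ = (a * b * a) * (a * b * a) := by rw [ab]
      _ = a * b * (a * a) * b * a := by simp only [mul_assoc]
      _ = a * (b * b) * a := by rw [aa, mul_one]; simp only [mul_assoc]
      _ = 1 := by rw [bb, mul_one, aa]
  have h2 : (a * b * a) ^ 2 = 1 := by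
    calc (a * b * a) ^ 2 = a * b * (a * a) * b * a := by rw [pow_two]; simp only [mul_assoc]
      _ = a * (b * b) * a := by rw [aa, mul_one]; simp only [mul_assoc]
      _ = 1 := by rw [bb, mul_one, aa]
  rcases mem_S3 aa bb ab ht with rfl | rfl | rfl | rfl | rfl | rfl
  · exact one_pow _
  · rw [show (6 : ℕ) = 2 * 3 from rfl, pow_mul, pow_two, aa, one_pow]
  · rw [show (6 : ℕ) = 2 * 3 from rfl, pow_mul, pow_two, bb, one_pow]
  · rw [show (6 : ℕ) = 3 * 2 from rfl, pow_mul, h3, one_pow]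
  · rw [show (6 : ℕ) = 3 * 2 from rfl, pow_mul, h3', one_pow]
  · rw [show (6 : ℕ) = 2 * 3 from rfl, pow_mul, h2, one_pow]

/-- products of commuting subgroups -/
theorem mem_sup_comm {A B : Subgroup G} (hAB : ∀ a ∈ A, ∀ b ∈ B, Commute a b) {g : G} (hg : g ∈ A ⊔ B) :
    ∃ a ∈ A, ∃ b ∈ B, g = a * b := by
  have h0 : ∀ (a : ↥A) (b : ↥B), Commute (A.subtype a) (B.subtype b) := fun a b => hAB a a.2 b b.2
  have h1 := MonoidHom.noncommCoprod_range A.subtype B.subtype h0
  rw [range_subtype, range_subtype] at h1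
  rw [← h1] at hg
  obtain ⟨⟨a, b⟩, rfl⟩ := hg
  exact ⟨a, a.2, b, b.2, rfl⟩

variable (h : Facts G D l k u v x s)

include h

/-- elements of `T` commute with `K` -/
theorem comm_T {c t : G} (hc : c ∈ centralizer ({l, k, u, v} : Set G)) (ht : t ∈ closure ({l, u, v, k} : Set G)) :
    Commute c t := by
  have h1 : closure ({l, u, v, k} : Set G) ≤ centralizer ({c} : Set G) := by
    rw [closure_le]
    obtain ⟨h1, h2, h3, h4⟩ := mem4.1 hc
    rintro y (rfl | rfl | rfl | rfl) <;> rw [SetLike.mem_coe, mem_centralizer_singleton_iff]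
    exacts [h1.symm, h3.symm, h4.symm, h2.symm]
  exact (mem_centralizer_singleton_iff.1 (h1 ht)).symm

theorem pow_six_T {t : G} (ht : t ∈ closure ({l, u, v, k} : Set G)) : t ^ 6 = 1 := by
  have h0 : ∀ a ∈ closure ({l, k} : Set G), ∀ b ∈ closure ({u, v} : Set G), Commute a b := by
    intro a ha b hb
    have h1 : closure ({l, k} : Set G) ≤ centralizer ((closure ({u, v} : Set G) : Subgroup G) : Set G) := by
      rw [centralizer_closure, closure_le]
      rintro y (rfl | rfl) <;> rw [SetLike.mem_coe, mem_centralizer_iff] <;> rintro z (rfl | rfl)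
      exacts [h.lu.symm, h.lv.symm, h.ku.symm, h.kv.symm]
    exact (mem_centralizer_iff.1 (h1 ha) b hb).symm
  have h1 : closure ({l, u, v, k} : Set G) ≤ closure ({l, k} : Set G) ⊔ closure ({u, v} : Set G) := by
    rw [closure_le]
    rintro y (rfl | rfl | rfl | rfl)
    · exact mem_sup_left (subset_closure (by simp))
    · exact mem_sup_right (subset_closure (by simp))
    · exact mem_sup_right (subset_closure (by simp))
    · exact mem_sup_left (subset_closure (by simp))
  obtain ⟨a, ha, b, hb, rfl⟩ := mem_sup_comm h0 (h1 ht)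
  rw [(h0 a ha b hb).mul_pow, pow_six h.ll h.kk h.lk ha, pow_six h.uu h.vv h.uv hb, one_mul]

/-- an element of odd order commuting with `x` lies in `T⟨x⟩` -/
theorem struct [Finite G] {g : G} (hgx : g * x = x * g) {r : ℕ} (hr : Odd r) (hg : g ^ r = 1) :
    ∃ c ∈ zpowers x, ∃ t ∈ closure ({l, u, v, k} : Set G), g = c * t := by
  have hgN : g ∈ normalizer ((zpowers x : Subgroup G) : Set G) := by
    apply centralizer_le_normalizer
    rw [mem_centralizer_iff]
    intro z hz
    obtain ⟨n, rfl⟩ := mem_zpowers_iff.1 hz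
    exact (show Commute x g from hgx.symm).zpow_left n
  set N := normalizer ((zpowers x : Subgroup G) : Set G) with hN
  set N1 := ((centralizer ({l, k, u, v} : Set G) ⊓ N) ⊔ closure ({l, u, v, k} : Set G)) with hN1
  have h2 : (N1.subgroupOf N).index = 2 := index_N1 h
  have h3 : (⟨g, hgN⟩ : ↥N) ∈ N1.subgroupOf N := by
    obtain ⟨m, hm⟩ := hr
    have h4 : (⟨g, hgN⟩ : ↥N) ^ r = 1 := Subtype.ext hg
    have h5 : (⟨g, hgN⟩ : ↥N) ^ 2 ∈ N1.subgroupOf N := sq_mem_of_index_two h2 _
    have h6 : (⟨g, hgN⟩ : ↥N) = ((⟨g, hgN⟩ : ↥N) ^ 2) ^ (m + 1) := by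
      rw [← pow_mul, show 2 * (m + 1) = r + 1 by omega, pow_succ, h4, one_mul]
    rw [h6]
    exact pow_mem h5 _
  rw [mem_subgroupOf] at h3
  have h3' : g ∈ N1 := h3
  have hAB : ∀ a ∈ centralizer ({l, k, u, v} : Set G) ⊓ N, ∀ b ∈ closure ({l, u, v, k} : Set G), Commute a b :=
    fun a ha b hb => comm_T h (mem_inf.1 ha).1 hb
  obtain ⟨c, hc, t, ht, e⟩ := mem_sup_comm hAB h3'
  refine ⟨c, ?_, t, ht, e⟩
  apply h.cent c hc.1
  have h7 : c = g * t⁻¹ := by rw [e]; group
  have h8 : Commute x t := comm_T h (x_mem h) ht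
  have h9 : Commute x g := hgx.symm
  rw [h7]
  exact (h9.mul_right h8.inv_right).symm

end

open Cfsg Cfsg.Agent.H845.T13

/-- the subgroup `G₂(3)` is simple -/
theorem simple_K : IsSimpleGroup ↥K := by
  obtain ⟨e⟩ := iso_K
  have hs := Cfsg.Agent.H845.GTwoIso.isSimple_chev
  exact e.isSimpleGroup

theorem K_le_comm : K ≤ commutator Spor.Fi24 := by
  have hs := simple_K
  have hc : ¬ ∀ p q : ↥K, p * q = q * p := by
    intro hc
    obtain ⟨e⟩ := iso_K
    apply not_comm_chev
    intro p q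
    obtain ⟨p, rfl⟩ := e.surjective p
    obtain ⟨q, rfl⟩ := e.surjective q
    rw [← map_mul, ← map_mul, hc]
  have h1 : commutator ↥K = ⊤ := by
    rcases hs.eq_bot_or_eq_top_of_normal (commutator ↥K) inferInstance with h2 | h2
    · exfalso
      apply hc
      intro p q
      have h3 : p * q * p⁻¹ * q⁻¹ ∈ commutator ↥K := commutator_mem_commutator (mem_top p) (mem_top q)
      rw [h2, mem_bot] at h3
      exact commutatorElement_eq_one_iff_mul_comm.1 h3
    · exact h2
  have h2 : (commutator ↥K).map K.subtype = K := by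
    rw [h1, ← MonoidHom.range_eq_map, range_subtype]
  rw [← h2, map_commutator_eq]
  exact commutator_mono le_top le_top

/-- elements of odd order commuting with `x` -/
theorem main_x {g : Spor.Fi24} (hgx : g * x = x * g) {r : ℕ} (hr : r.Prime) (hr2 : r ≠ 2) (hr13 : r ≠ 13)
    (hg : orderOf g = r) : r = 3 ∧ ∀ k ∈ K, Commute g k := by
  have := Cfsg.Agent.R08.FiTwentyFour.finite_Fi24
  obtain ⟨c, hc, t, ht, e⟩ := struct facts hgx (hr.odd_of_ne_two hr2) (by rw [← hg, pow_orderOf_eq_one])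
  have hcK : c ∈ K := zpowers_le_K facts hc
  have hct : Commute c t := comm_T facts hcK ht
  have htK : ∀ y ∈ K, Commute t y := fun y hy => (comm_T facts hy ht).symm
  have h1 : c ^ r * t ^ r = 1 := by
    rw [← hct.mul_pow, ← e, ← hg, pow_orderOf_eq_one]
  have h2 : t ^ r ∈ K := by
    have : t ^ r = (c ^ r)⁻¹ := (inv_eq_of_mul_eq_one_right h1).symm
    rw [this]
    exact inv_mem (pow_mem hcK r)
  have h3 : t ^ r = 1 := center_K h2 fun y hy => (htK y hy).pow_left r
  have h4 : c ^ r = 1 := by rwa [h3, mul_one] at h1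
  have h5 : c ^ 13 = 1 := by
    obtain ⟨n, rfl⟩ := mem_zpowers_iff.1 hc
    rw [← zpow_natCast, ← zpow_mul, mul_comm, zpow_mul, zpow_natCast, x13, one_zpow]
  have h6 : c = 1 := by
    have h7 : orderOf c ∣ Nat.gcd r 13 := Nat.dvd_gcd (orderOf_dvd_of_pow_eq_one h4) (orderOf_dvd_of_pow_eq_one h5)
    rw [(Nat.coprime_primes hr (by norm_num)).2 hr13] at h7
    exact orderOf_eq_one_iff.1 (Nat.dvd_one.1 h7)
  rw [h6, one_mul] at e
  subst e
  refine ⟨?_, htK⟩
  have h8 : r ∣ 6 := by
    rw [← hg]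
    exact orderOf_dvd_of_pow_eq_one (pow_six_T facts ht)
  have h9 : r ≤ 6 := Nat.le_of_dvd (by norm_num) h8
  have h10 := hr.two_le
  interval_cases r
  · exact absurd rfl hr2
  · rfl
  · omega
  · omega
  · exact absurd hr (by norm_num)

/-- reduction to `x` -/
theorem exists_conj {y : Spor.Fi24} (hy : orderOf y = 13) :
    ∃ g : Spor.Fi24, g * y * g⁻¹ ∈ zpowers x ∧ ∀ z : Spor.Fi24, Commute z y → Commute (g * z * g⁻¹) x := by
  have := Cfsg.Agent.R08.FiTwentyFour.finite_Fi24
  obtain ⟨g, hg⟩ := exists_conj_of_card_prime (p := 13) (by norm_num)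
    (by rw [facts.card]; norm_num) (zpowers y) (zpowers x) (by rw [Nat.card_zpowers, hy]) (card_x facts)
  refine ⟨g, ?_, ?_⟩
  · rw [← hg]
    exact ⟨y, mem_zpowers y, rfl⟩
  · intro z hz
    have h1 : x ∈ (zpowers y).map (MulAut.conj g).toMonoidHom := by rw [hg]; exact mem_zpowers x
    obtain ⟨y', hy', e⟩ := h1
    obtain ⟨n, rfl⟩ := mem_zpowers_iff.1 hy'
    have e : g * y ^ n * g⁻¹ = x := e
    rw [← e]
    have h2 : Commute z (y ^ n) := hz.zpow_right n
    show g * z * g⁻¹ * (g * y ^ n * g⁻¹) = g * y ^ n * g⁻¹ * (g * z * g⁻¹)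
    calc g * z * g⁻¹ * (g * y ^ n * g⁻¹) = g * (z * y ^ n) * g⁻¹ := by group
      _ = g * (y ^ n * z) * g⁻¹ := by rw [h2.eq]
      _ = g * y ^ n * g⁻¹ * (g * z * g⁻¹) := by group

theorem thirteen_primes {y x : Spor.Fi24} {r : ℕ} (hy : orderOf y = 13) (hr : r.Prime) (hx : orderOf x = r)
    (hc : Commute x y) : r = 2 ∨ r = 3 ∨ r = 13 := by
  obtain ⟨g, -, h2⟩ := exists_conj hy
  by_cases h3 : r = 2
  · exact Or.inl h3
  by_cases h4 : r = 13
  · exact Or.inr (Or.inr h4)
  have h5 : orderOf (g * x * g⁻¹) = r := by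
    rw [← hx]
    exact MulEquiv.orderOf_eq (MulAut.conj g) x
  exact Or.inr (Or.inl (main_x (h2 x hc) hr h3 h4 h5).1)

theorem thirteen {y x : Spor.Fi24} (hy : orderOf y = 13) (hx : orderOf x = 3) (hc : Commute x y) :
    ∃ K : Subgroup Spor.Fi24, K ≤ commutator Spor.Fi24 ∧ IsSimpleGroup K ∧ y ∈ K ∧ (∀ k ∈ K, Commute x k) ∧
      2 ∣ Nat.card K := by
  obtain ⟨g, h1, h2⟩ := exists_conj hy
  have h5 : orderOf (g * x * g⁻¹) = 3 := by
    rw [← hx]
    exact MulEquiv.orderOf_eq (MulAut.conj g) x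
  obtain ⟨-, h6⟩ := main_x (h2 x hc) Nat.prime_three (by norm_num) (by norm_num) h5
  have hinj : Function.Injective (MulAut.conj g⁻¹).toMonoidHom := (MulAut.conj g⁻¹).injective
  refine ⟨K.map (MulAut.conj g⁻¹).toMonoidHom, ?_, ?_, ?_, ?_, ?_⟩
  · rintro _ ⟨k, hk, rfl⟩
    exact (inferInstance : (commutator Spor.Fi24).Normal).conj_mem k (K_le_comm hk) g⁻¹
  · have hs := simple_K
    exact (K.equivMapOfInjective _ hinj).symm.isSimpleGroup
  · refine ⟨g * y * g⁻¹, zpowers_le_K facts h1, ?_⟩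
    show g⁻¹ * (g * y * g⁻¹) * g⁻¹⁻¹ = y
    group
  · rintro _ ⟨k, hk, rfl⟩
    have h7 : g * x * g⁻¹ * k = k * (g * x * g⁻¹) := h6 k hk
    show x * (g⁻¹ * k * g⁻¹⁻¹) = g⁻¹ * k * g⁻¹⁻¹ * x
    calc x * (g⁻¹ * k * g⁻¹⁻¹) = g⁻¹ * (g * x * g⁻¹ * k) * g := by group
      _ = g⁻¹ * (k * (g * x * g⁻¹)) * g := by rw [h7]
      _ = g⁻¹ * k * g⁻¹⁻¹ * x := by group
  · rw [card_map_of_injective hinj, card_K]
    norm_num

end Cfsg.Agent.H217.RG.Thirteen
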